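import Cfsg.Agent.CosetEnum.Lower

/-! Generated coset enumeration certificate: killing an element of order eleven. -/

set_option autoImplicit false
set_option maxRecDepth 100000

namespace CfsgLib.CosetEnum.ON.MathieuKill

open CfsgLib.CosetEnum

noncomputable def epFLeaf (c : ℕ) : ℕ :=
  0x200000000000100000000007f00000000004100000000004200000000004000000000003f00000

/-- table entries -/
noncomputable def epF (i : ℕ) : ℕ :=
  ((epFLeaf (i >>> 9)) >>> (48 * (i % 512))) % 281474976710656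

noncomputable def nodeFLeaf (c : ℕ) : ℕ :=
  0x0

/-- table entries -/
noncomputable def nodeF (i : ℕ) : ℕ :=
  ((nodeFLeaf (i >>> 10)) >>> (20 * (i % 1024))) % 1048576

noncomputable def TFLeaf (c : ℕ) : ℕ :=
  0x0

/-- table entries -/
noncomputable def TF (i : ℕ) : ℕ :=
  ((TFLeaf (i >>> 10)) >>> (20 * (i % 1024))) % 1048576

noncomputable def tfFLeaf (c : ℕ) : ℕ :=
  0xc00000a00000b

/-- table entries -/
noncomputable def tfF (i : ℕ) : ℕ :=
  ((tfFLeaf (i >>> 10)) >>> (24 * (i % 1024))) % 16777216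

noncomputable def parFLeaf (c : ℕ) : ℕ :=
  0x0

/-- table entries -/
noncomputable def parF (i : ℕ) : ℕ :=
  ((parFLeaf (i >>> 10)) >>> (32 * (i % 1024))) % 4294967296

/-- the words: relators, then generators of the subgroup -/
def words : List (List ℕ) := [[0, 0, 0, 0], [2, 0, 2, 0, 2, 0, 2, 0, 2, 0, 2, 0, 2, 0, 2, 0, 2, 0, 2, 0, 2, 0], [2, 0, 0, 2, 0, 0, 2, 0, 0, 2, 0, 0, 2, 0, 0, 2, 0, 0], [2, 0, 2, 0, 2, 1, 2, 0, 2, 0, 0, 2, 1, 2, 0, 2, 1, 2, 1], [2, 0], [1, 1, 1, 1], [1, 2, 1, 2, 1, 2, 1, 2, 1, 2, 1, 2, 1, 2, 1, 2, 1, 2, 1, 2, 1, 2], [1, 1, 2, 1, 1, 2, 1, 1, 2, 1, 1, 2, 1, 1, 2, 1, 1, 2], [0, 2, 0, 2, 1, 2, 0, 2, 1, 1, 2, 1, 2, 0, 2, 1, 2, 1, 2], [1, 2]]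

/-- the certificate -/
noncomputable def cert : CertData where
  L := 3
  n := 1
  iv := fun x => bif Nat.blt x 2 then x ^^^ 1 else x
  words := words
  nr := 10
  ep := epF
  node := nodeF
  T := TF
  tf := tfF

/-- parents in the table -/
noncomputable def par : ℕ → ℕ := parF

end CfsgLib.CosetEnum.ON.MathieuKill
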