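import Cfsg.Agent.CosetEnum.ON.MathieuKill.Data

/-! Generated: checks of facts. -/

set_option autoImplicit false
set_option maxRecDepth 100000

namespace CfsgLib.CosetEnum.ON.MathieuKill

open CfsgLib.CosetEnum

theorem facts0 : checkFacts epF (fun x => bif Nat.blt x 2 then x ^^^ 1 else x) words 10 0 [0x1, 0x0, 0x300001000010000a00004, 0x500000000000000a00004, 0x300004000030000400007000040000300004000070000200005000020000500006000050000200005000020000500013000010000400016, 0x3000080000000003, 0x5000080000000003] = true := by
  decide +kernel

theorem factsUpTo7 (h : FactsChecked cert.ep cert.iv cert.words cert.nr 0) :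
    FactsChecked cert.ep cert.iv cert.words cert.nr 7 :=
  (FactsChecked.app _ 7 h facts0 rfl)

end CfsgLib.CosetEnum.ON.MathieuKill
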